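import Mathlib
import Cfsg.Agent.CyclicNilp.Basic

/-!
Regular unipotent elements of symplectic groups in odd characteristic: their centralizers and
their classes, through the norm map on the commutant.
-/

set_option autoImplicit false

open Matrix Finset

namespace CfsgLib.CyclicNilpSp

variable {F : Type*} [Field F] {l : ℕ}

/-- The matrices in question. -/
abbrev M (F : Type*) (m : ℕ) := Matrix (Fin m ⊕ Fin m) (Fin m ⊕ Fin m) F

/-- The adjoint for the symplectic form. -/
def adj {m : ℕ} (X : M F m) : M F m := -(Matrix.J (Fin m) F * Xᵀ * Matrix.J (Fin m) F)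

section Adj

variable {m : ℕ}

theorem adj_one : adj (1 : M F m) = 1 := by
  rw [adj, transpose_one, mul_one, J_squared, neg_neg]

theorem adj_mul (X Y : M F m) : adj (X * Y) = adj Y * adj X := by
  have h : Matrix.J (Fin m) F * Yᵀ * (Matrix.J (Fin m) F * Matrix.J (Fin m) F) * Xᵀ * Matrix.J (Fin m) F =
      -(Matrix.J (Fin m) F * Yᵀ * Xᵀ * Matrix.J (Fin m) F) := by
    rw [J_squared]; simp [Matrix.mul_assoc]
  rw [adj, adj, adj, transpose_mul, neg_mul_neg]
  rw [← neg_neg (Matrix.J (Fin m) F * (Yᵀ * Xᵀ) * Matrix.J (Fin m) F)] at *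
  simp only [← Matrix.mul_assoc] at h ⊢
  rw [h]
  simp

theorem adj_add (X Y : M F m) : adj (X + Y) = adj X + adj Y := by
  simp [adj, transpose_add, Matrix.mul_add, Matrix.add_mul, add_comm]

theorem adj_sub (X Y : M F m) : adj (X - Y) = adj X - adj Y := by
  have h := adj_add (X - Y) Y
  rw [sub_add_cancel] at h
  rw [h, add_sub_cancel_right]

theorem adj_smul (c : F) (X : M F m) : adj (c • X) = c • adj X := by
  simp [adj, transpose_smul]

theorem adj_adj (X : M F m) : adj (adj X) = X := by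
  have h : (Matrix.J (Fin m) F * Xᵀ * Matrix.J (Fin m) F)ᵀ =
      Matrix.J (Fin m) F * X * Matrix.J (Fin m) F := by
    simp [transpose_mul, J_transpose, Matrix.mul_assoc]
  rw [adj, adj, transpose_neg, h, mul_neg, neg_mul, neg_neg]
  calc Matrix.J (Fin m) F * (Matrix.J (Fin m) F * X * Matrix.J (Fin m) F) * Matrix.J (Fin m) F
      = (Matrix.J (Fin m) F * Matrix.J (Fin m) F) * X * (Matrix.J (Fin m) F * Matrix.J (Fin m) F) := by
        simp only [Matrix.mul_assoc]
    _ = X := by rw [J_squared]; simp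

theorem adj_zero : adj (0 : M F m) = 0 := by simp [adj]

theorem adj_neg (X : M F m) : adj (-X) = -adj X := by
  simp [adj, transpose_neg]

theorem adj_pow (X : M F m) (n : ℕ) : adj (X ^ n) = adj X ^ n := by
  induction n with
  | zero => simp [adj_one]
  | succ n ih => rw [pow_succ, adj_mul, ih, pow_succ']

theorem adj_sum {ι : Type*} (s : Finset ι) (f : ι → M F m) :
    adj (∑ i ∈ s, f i) = ∑ i ∈ s, adj (f i) :=
  by
  classical
  induction s using Finset.induction_on with
  | empty => simp [adj_zero]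
  | insert a s ha ih => rw [Finset.sum_insert ha, Finset.sum_insert ha, adj_add, ih]

theorem mem_iff_adj {X : M F m} : X ∈ symplecticGroup (Fin m) F ↔ X * adj X = 1 := by
  rw [SymplecticGroup.mem_iff, adj, mul_neg, ← Matrix.mul_assoc, ← Matrix.mul_assoc]
  constructor
  · intro h
    rw [h, J_squared, neg_neg]
  · intro h
    have h2 := congrArg (fun Y => Y * Matrix.J (Fin m) F) h
    simp only [neg_mul, Matrix.mul_assoc, J_squared, one_mul] at h2
    simpa [Matrix.mul_assoc] using h2

/-- The adjoint as an endomap of the units. -/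
def adjU (X : (M F m)ˣ) : (M F m)ˣ where
  val := adj (X : M F m)
  inv := adj ((X⁻¹ : (M F m)ˣ) : M F m)
  val_inv := by rw [← adj_mul, Units.inv_mul, adj_one]
  inv_val := by rw [← adj_mul, Units.mul_inv, adj_one]

theorem adjU_mul (X Y : (M F m)ˣ) : adjU (X * Y) = adjU Y * adjU X :=
  Units.ext (adj_mul _ _)

theorem adjU_adjU (X : (M F m)ˣ) : adjU (adjU X) = X := Units.ext (adj_adj _)

theorem adjU_inv (X : (M F m)ˣ) : adjU X⁻¹ = (adjU X)⁻¹ := Units.ext rfl

end Adj

/-- Polynomials in `B`. -/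
def pol (B : M F (l + 1)) (a : Fin (2 * l + 2) → F) : M F (l + 1) := ∑ i, a i • B ^ (i : ℕ)

/-- A reindexing. -/
def idx (l : ℕ) : Fin (l + 1) ⊕ Fin (l + 1) ≃ Fin (2 * l + 1 + 1) :=
  finSumFinEquiv.trans (finCongr (by omega))

/-- The reindexing as an algebra isomorphism. -/
noncomputable def ri : M F (l + 1) ≃ₐ[F] Matrix (Fin (2 * l + 1 + 1)) (Fin (2 * l + 1 + 1)) F :=
  Matrix.reindexAlgEquiv F F (idx l)

theorem ri_pol (B : M F (l + 1)) (a : Fin (2 * l + 2) → F) :
    ri (pol B a) = CyclicNilp.poly (ri B) a := by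
  simp [pol, CyclicNilp.poly, map_sum, map_smul, map_pow]

/-- A nilpotent matrix of corank one. -/
structure Reg (B : M F (l + 1)) : Prop where
  nil : B ^ (2 * (l + 1)) = 0
  rank : B.rank = 2 * (l + 1) - 1

theorem Reg.ri_nil {B : M F (l + 1)} (h : Reg B) : ri B ^ (2 * l + 1 + 1) = 0 := by
  have e : B ^ (2 * l + 1 + 1) = 0 := by rw [show 2 * l + 1 + 1 = 2 * (l + 1) by ring, h.nil]
  rw [← map_pow, e, map_zero]

theorem Reg.ri_rank {B : M F (l + 1)} (h : Reg B) : (ri B).rank = 2 * l + 1 := by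
  have e : (ri B).rank = B.rank := Matrix.rank_reindex _ _ B
  rw [e, h.rank]
  omega

theorem Reg.commutant {B : M F (l + 1)} (h : Reg B) {X : M F (l + 1)} (hX : Commute X B) :
    ∃! a, X = pol B a := by
  obtain ⟨v, hv⟩ := CyclicNilp.exists_cyclic (ri B) h.ri_nil h.ri_rank
  obtain ⟨a, ha, huniq⟩ := CyclicNilp.exists_poly_of_commute (ri B) (ri X) v hv (hX.map _)
  refine ⟨a, ri.injective (by rw [ri_pol]; exact ha), fun b hb => huniq b ?_⟩
  show ri X = _
  rw [hb, ri_pol]

theorem pol_commute (B : M F (l + 1)) (a : Fin (2 * l + 2) → F) : Commute (pol B a) B :=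
  Commute.sum_left _ _ _ fun i _ => ((Commute.refl B).pow_left _).smul_left _

theorem Reg.comm_of_commute {B : M F (l + 1)} (h : Reg B) {X Y : M F (l + 1)} (hX : Commute X B)
    (hY : Commute Y B) : Commute X Y := by
  obtain ⟨a, ha, -⟩ := h.commutant hX
  rw [ha]
  exact Commute.sum_left _ _ _ fun i _ => (hY.symm.pow_left _).smul_left _

theorem Reg.pol_injective {B : M F (l + 1)} (h : Reg B) : Function.Injective (pol B) := fun a b hab =>
  (h.commutant (pol_commute B a)).unique rfl hab

theorem pol_sub_isNilpotent {B : M F (l + 1)} (h : Reg B) (a : Fin (2 * l + 2) → F) :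
    IsNilpotent (pol B a - a 0 • 1) := by
  rw [pol, Fin.sum_univ_succ, Fin.val_zero, pow_zero, add_sub_cancel_left]
  have e : (∑ i : Fin (2 * l + 1), a i.succ • B ^ ((i.succ : Fin (2 * l + 2)) : ℕ)) =
      B * ∑ i : Fin (2 * l + 1), a i.succ • B ^ (i : ℕ) := by
    simp [Finset.mul_sum, pow_succ']
  rw [e]
  exact Commute.isNilpotent_mul_right
    (Commute.sum_right _ _ _ fun i _ => ((Commute.refl B).pow_right _).smul_right _) ⟨_, h.nil⟩

theorem isUnit_pol_iff {B : M F (l + 1)} (h : Reg B) (a : Fin (2 * l + 2) → F) :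
    IsUnit (pol B a) ↔ a 0 ≠ 0 := by
  have hn := pol_sub_isNilpotent h a
  constructor
  · intro hu h0
    rw [h0, zero_smul, sub_zero] at hn
    exact not_isUnit_zero (show IsUnit (0 : M F (l + 1)) from by
      obtain ⟨n, hn⟩ := hn
      exact hn ▸ hu.pow n)
  · intro h0
    have e : pol B a = a 0 • (1 : M F (l + 1)) + (pol B a - a 0 • 1) := by abel
    rw [e]
    refine hn.isUnit_add_left_of_commute ?_ ((Commute.one_right _).smul_right _)
    rw [← Algebra.algebraMap_eq_smul_one]
    exact (Ne.isUnit h0).map (algebraMap F (M F (l + 1)))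

/-- The eigenvalue of an element of the commutant. -/
theorem eigen_exists {B : M F (l + 1)} (h : Reg B) {X : M F (l + 1)} (hX : Commute X B) :
    ∃ a : F, IsNilpotent (X - a • 1) := by
  obtain ⟨a, ha, -⟩ := h.commutant hX
  exact ⟨a 0, ha ▸ pol_sub_isNilpotent h a⟩

theorem eigen_unique {B : M F (l + 1)} (h : Reg B) {X : M F (l + 1)} {a b : F}
    (ha : IsNilpotent (X - a • 1)) (hb : IsNilpotent (X - b • 1)) : a = b := by
  by_contra hne
  have e : (a - b) • (1 : M F (l + 1)) = (X - b • 1) - (X - a • 1) := by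
    rw [sub_smul]; abel
  have hc : Commute (X - b • 1) (X - a • 1) :=
    ((Commute.refl X).sub_right ((Commute.one_right X).smul_right a)).sub_left
      (((Commute.one_left _).smul_left b))
  have hn := hc.isNilpotent_sub hb ha
  rw [← e] at hn
  obtain ⟨n, hn⟩ := hn
  rw [smul_pow, one_pow] at hn
  rcases smul_eq_zero.mp hn with h1 | h1
  · exact hne (sub_eq_zero.mp (pow_eq_zero_iff'.mp h1).1)
  · exact one_ne_zero h1

section Skew

variable {B : M F (l + 1)}

theorem adj_pol (hskew : adj B = -B) (a : Fin (2 * l + 2) → F) :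
    adj (pol B a) = pol B (fun i => (-1) ^ (i : ℕ) * a i) := by
  rw [pol, pol, adj_sum]
  refine Finset.sum_congr rfl fun i _ => ?_
  rw [adj_smul, adj_pow, hskew, neg_pow, mul_smul, smul_comm]
  congr 1
  rw [← Algebra.smul_def' (R := F) ((-1 : F) ^ (i : ℕ)) _ |>.symm, map_pow, map_neg, map_one]

theorem adj_commute (hskew : adj B = -B) {X : M F (l + 1)} (hX : Commute X B) : Commute (adj X) B := by
  have h := congrArg adj hX.eq
  rw [adj_mul, adj_mul, hskew, neg_mul, mul_neg, neg_inj] at h
  exact h.symm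

variable (B) in
/-- The units commuting with `B`. -/
def CU : Subgroup (M F (l + 1))ˣ where
  carrier := {X | Commute (X : M F (l + 1)) B}
  one_mem' := Commute.one_left B
  mul_mem' := fun hX hY => Commute.mul_left hX hY
  inv_mem' := fun {X} hX => Commute.units_inv_left hX

theorem CU_comm (h : Reg B) (x y : CU B) : x * y = y * x :=
  Subtype.ext (Units.ext (h.comm_of_commute x.2 y.2).eq)

theorem adjU_mem (hskew : adj B = -B) {X : (M F (l + 1))ˣ} (hX : X ∈ CU B) : adjU X ∈ CU B :=
  adj_commute hskew hX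

/-- The norm `z ↦ z σ(z)`. -/
def nrm (h : Reg B) (hskew : adj B = -B) : CU B →* CU B where
  toFun z := ⟨z.1 * adjU z.1, mul_mem z.2 (adjU_mem hskew z.2)⟩
  map_one' := Subtype.ext (Units.ext (by simp [adjU, adj_one]))
  map_mul' := fun x y => by
    refine Subtype.ext ?_
    have hc : Commute (y : (M F (l + 1))ˣ) (adjU y.1 * adjU x.1) :=
      congrArg Subtype.val (CU_comm h y ⟨_, mul_mem (adjU_mem hskew y.2) (adjU_mem hskew x.2)⟩)
    have hc2 : Commute (adjU y.1) (adjU x.1) :=
      congrArg Subtype.val (CU_comm h ⟨_, adjU_mem hskew y.2⟩ ⟨_, adjU_mem hskew x.2⟩)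
    show x.1 * y.1 * adjU (x.1 * y.1) = x.1 * adjU x.1 * (y.1 * adjU y.1)
    rw [adjU_mul, mul_assoc (x.1 : (M F (l + 1))ˣ), hc.eq, hc2.eq]
    have hc3 : adjU y.1 * (y : (M F (l + 1))ˣ) = y.1 * adjU y.1 :=
      congrArg Subtype.val (CU_comm h ⟨_, adjU_mem hskew y.2⟩ y)
    simp only [mul_assoc, hc3]

/-- The fixed units. -/
def SU' (h : Reg B) : Subgroup (M F (l + 1))ˣ where
  carrier := {X | Commute (X : M F (l + 1)) B ∧ adj (X : M F (l + 1)) = X}
  one_mem' := ⟨Commute.one_left B, adj_one⟩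
  mul_mem' := fun {X Y} hX hY => ⟨Commute.mul_left hX.1 hY.1, by
    rw [Units.val_mul, adj_mul, hX.2, hY.2, (h.comm_of_commute hX.1 hY.1).eq]⟩
  inv_mem' := fun {X} hX => ⟨Commute.units_inv_left hX.1, by
    have e : (adjU X⁻¹ : (M F (l + 1))ˣ) = X⁻¹ := by
      rw [adjU_inv, show adjU X = X from Units.ext hX.2]
    exact congrArg Units.val e⟩

theorem SU'_comm (h : Reg B) (x y : SU' h) : x * y = y * x :=
  Subtype.ext (Units.ext (h.comm_of_commute x.2.1 y.2.1).eq)

/-- A scalar unit. -/
def sc {m : ℕ} (c : Fˣ) : (M F m)ˣ := Units.map (algebraMap F (M F m)).toMonoidHom c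

theorem sc_coe {m : ℕ} (c : Fˣ) : ((sc c : (M F m)ˣ) : M F m) = (c : F) • 1 :=
  Algebra.algebraMap_eq_smul_one _

theorem sc_comm {m : ℕ} (c : Fˣ) (X : (M F m)ˣ) : sc c * X = X * sc c :=
  Units.ext (by simp [sc_coe])

theorem adjU_sc {m : ℕ} (c : Fˣ) : adjU (sc c : (M F m)ˣ) = sc c :=
  Units.ext (by show adj _ = _; rw [sc_coe, adj_smul, adj_one])

theorem sc_mem (h : Reg B) (c : Fˣ) : sc c ∈ SU' h :=
  ⟨by rw [sc_coe]; exact (Commute.one_left B).smul_left _, congrArg Units.val (adjU_sc c)⟩

section Count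

variable [Fintype F]

theorem card_first_ne_zero (j : ℕ) :
    Nat.card {a : Fin (j + 1) → F // a 0 ≠ 0} = (Fintype.card F - 1) * Fintype.card F ^ j := by
  classical
  let e : {a : Fin (j + 1) → F // a 0 ≠ 0} ≃ {x : F // x ≠ 0} × (Fin j → F) :=
    { toFun := fun a => (⟨a.1 0, a.2⟩, Fin.tail a.1)
      invFun := fun p => ⟨Fin.cons p.1.1 p.2, by simpa using p.1.2⟩
      left_inv := fun a => Subtype.ext (Fin.cons_self_tail _)
      right_inv := fun p => by simp }
  rw [Nat.card_congr e, Nat.card_prod, Nat.card_fun, Nat.card_fin, Nat.card_eq_fintype_card,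
    Nat.card_eq_fintype_card, Fintype.card_subtype_compl, Fintype.card_subtype_eq]

theorem card_CU (h : Reg B) :
    Nat.card (CU B) = (Fintype.card F - 1) * Fintype.card F ^ (2 * l + 1) := by
  refine Eq.trans ?_ (card_first_ne_zero (2 * l + 1))
  refine (Nat.card_congr (Equiv.ofBijective
    (fun a : {a : Fin (2 * l + 1 + 1) → F // a 0 ≠ 0} =>
      (⟨((isUnit_pol_iff h a.1).mpr a.2).unit, by
        show Commute (((isUnit_pol_iff h a.1).mpr a.2).unit : M F (l + 1)) B
        rw [IsUnit.unit_spec]; exact pol_commute B a.1⟩ : CU B)) ⟨fun a b hab => ?_, fun z => ?_⟩)).symm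
  · exact Subtype.ext (h.pol_injective (congrArg (fun z : CU B => ((z.1 : (M F (l + 1))ˣ) : M F (l + 1))) hab))
  · obtain ⟨a, ha, -⟩ := h.commutant z.2
    exact ⟨⟨a, (isUnit_pol_iff h a).mp (ha ▸ z.1.isUnit)⟩, Subtype.ext (Units.ext ha.symm)⟩

theorem card_SU' (h : Reg B) (hskew : adj B = -B) (h2 : (2 : F) ≠ 0) :
    Nat.card (SU' h) = (Fintype.card F - 1) * Fintype.card F ^ l := by
  refine Eq.trans ?_ (card_first_ne_zero l)
  let ev : (Fin (l + 1) → F) → (Fin (2 * l + 2) → F) :=
    fun b i => if (i : ℕ) % 2 = 0 then b ⟨(i : ℕ) / 2, by omega⟩ else 0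
  have hfix : ∀ b, adj (pol B (ev b)) = pol B (ev b) := fun b => by
    rw [adj_pol hskew]
    refine congrArg (pol B) (funext fun i => ?_)
    by_cases hi : (i : ℕ) % 2 = 0
    · rw [(Nat.even_iff.mpr hi).neg_one_pow, one_mul]
    · simp [ev, hi]
  have hev0 : ∀ b, ev b 0 = b 0 := fun b => by
    simp only [ev, Fin.val_zero, Nat.zero_mod, if_pos]
    rfl
  refine (Nat.card_congr (Equiv.ofBijective
    (fun b : {b : Fin (l + 1) → F // b 0 ≠ 0} =>
      (⟨((isUnit_pol_iff h (ev b.1)).mpr (hev0 b.1 ▸ b.2)).unit, by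
        refine ⟨?_, ?_⟩
        · rw [IsUnit.unit_spec]; exact pol_commute B _
        · rw [IsUnit.unit_spec]; exact hfix b.1⟩ :
        SU' h)) ⟨fun a b hab => ?_, fun z => ?_⟩)).symm
  · have h1 := h.pol_injective
      (congrArg (fun z : SU' h => ((z.1 : (M F (l + 1))ˣ) : M F (l + 1))) hab)
    refine Subtype.ext (funext fun i => ?_)
    have h3 := congrFun h1 ⟨2 * (i : ℕ), by omega⟩
    simpa [ev] using h3
  · obtain ⟨a, ha, -⟩ := h.commutant z.2.1
    have h1 := z.2.2
    rw [ha, adj_pol hskew] at h1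
    have h3 := h.pol_injective h1
    have hodd : ∀ i : Fin (2 * l + 2), (i : ℕ) % 2 ≠ 0 → a i = 0 := fun i hi => by
      have h4 := congrFun h3 i
      rw [(Nat.odd_iff.mpr (by omega)).neg_one_pow, neg_one_mul, neg_eq_iff_add_eq_zero,
        ← two_mul] at h4
      exact (mul_eq_zero.mp h4).resolve_left h2
    refine ⟨⟨fun i => a ⟨2 * (i : ℕ), by omega⟩, ?_⟩, Subtype.ext (Units.ext ?_)⟩
    · have h5 := (isUnit_pol_iff h a).mp (ha ▸ z.1.isUnit)
      exact fun h6 => h5 (Eq.trans (congrArg a (Fin.ext rfl)) h6)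
    · show pol B (ev _) = _
      refine Eq.trans (congrArg (pol B) (funext fun i => ?_)) ha.symm
      by_cases hi : (i : ℕ) % 2 = 0
      · simp only [ev, if_pos hi]
        exact congrArg a (Fin.ext (by show 2 * ((i : ℕ) / 2) = i; omega))
      · simp only [ev, if_neg hi, hodd i hi]

/-- A scalar norm is a square. -/
theorem isSquare_of_sc (h : Reg B) (hskew : adj B = -B) {c : Fˣ} (z : CU B)
    (hz : sc c = z.1 * adjU z.1) : IsSquare (c : F) := by
  have hz' : ((z.1 : (M F (l + 1))ˣ) : M F (l + 1)) * adj (z.1 : M F (l + 1)) = (c : F) • 1 := by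
    rw [← sc_coe]; exact (congrArg Units.val hz).symm
  obtain ⟨a, ha⟩ := eigen_exists h z.2
  set Z := ((z.1 : (M F (l + 1))ˣ) : M F (l + 1)) with hZ
  have ha' : IsNilpotent (adj Z - a • 1) := by
    obtain ⟨n, hn⟩ := ha
    refine ⟨n, ?_⟩
    rw [← adj_one (F := F) (m := l + 1), ← adj_smul, ← adj_sub, ← adj_pow, hn, adj_zero]
  have hc : Commute Z (adj Z) := h.comm_of_commute z.2 (adj_commute hskew z.2)
  have hc1 : Commute Z (adj Z - a • 1) := hc.sub_right ((Commute.one_right Z).smul_right a)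
  have e : Z * adj Z - (a * a) • 1 = Z * (adj Z - a • 1) + a • (Z - a • 1) := by
    rw [mul_sub, smul_sub, mul_smul_one, smul_smul]; abel
  have hn : IsNilpotent (Z * adj Z - (a * a) • 1) := by
    rw [e]
    refine Commute.isNilpotent_add ?_ (hc1.isNilpotent_mul_left ha') (ha.smul a)
    refine Commute.smul_right (Commute.sub_right ?_ ((Commute.one_right _).smul_right a)) a
    exact (Commute.refl Z).mul_left hc1.symm
  have hl : IsNilpotent (Z * adj Z - (c : F) • 1) := by rw [hz', sub_self]; exact IsNilpotent.zero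
  exact ⟨a, eigen_unique h hl hn⟩

/-- A fixed unit is a norm exactly when its eigenvalue is a square. -/
theorem range_nrm_data (h : Reg B) (hskew : adj B = -B) (h2 : (2 : F) ≠ 0) {lam : Fˣ}
    (hlam : ¬ IsSquare (lam : F)) :
    Nat.card (nrm h hskew).ker = 2 * Fintype.card F ^ (l + 1) ∧
    ∀ D : (M F (l + 1))ˣ, Commute (D : M F (l + 1)) B → adj (D : M F (l + 1)) = D →
      ∃ z : CU B, D = z.1 * adjU z.1 ∨ D = sc lam * (z.1 * adjU z.1) := by
  classical
  set S := SU' h with hS
  set R := ((nrm h hskew).range.map (CU B).subtype).subgroupOf S with hR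
  letI : CommGroup S := { (inferInstance : Group S) with mul_comm := SU'_comm h }
  set sq : S →* S := powMonoidHom 2 with hsq
  have hker2 : Nat.card sq.ker = 2 := by
    have key : ∀ s : S, s ∈ sq.ker ↔ s = 1 ∨ s = ⟨sc (-1), sc_mem h _⟩ := fun s => by
      constructor
      · intro hs
        have hs' : ((s : (M F (l + 1))ˣ) : M F (l + 1)) * (s : (M F (l + 1))ˣ) = 1 := by
          have := congrArg (fun x : S => ((x : (M F (l + 1))ˣ) : M F (l + 1))) (MonoidHom.mem_ker.mp hs)
          simpa [hsq, sq, pow_two] using this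
        obtain ⟨a, ha⟩ := eigen_exists h s.2.1
        set X := ((s : (M F (l + 1))ˣ) : M F (l + 1)) with hX
        have hsplit : (X - a • 1) * (X + a • 1) = (1 - a * a) • 1 := by
          rw [sub_mul, mul_add, mul_add, hs', smul_one_mul, mul_smul_one, smul_mul_smul_comm, mul_one,
            sub_smul, one_smul]
          abel
        have hnil2 : IsNilpotent ((1 - a * a) • (1 : M F (l + 1))) := by
          rw [← hsplit]
          refine Commute.isNilpotent_mul_right ?_ ha
          exact ((Commute.refl X).add_right ((Commute.one_right X).smul_right a)).sub_left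
            ((Commute.one_left _).smul_left a)
        have h1 : (1 - a * a) = 0 := eigen_unique h (X := (1 - a * a) • 1) (by rw [sub_self]; exact IsNilpotent.zero)
          (by rw [zero_smul, sub_zero]; exact hnil2)
        rw [h1, zero_smul] at hsplit
        have ha0 : a ≠ 0 := fun h0 => by rw [h0, mul_zero, sub_zero] at h1; exact one_ne_zero h1
        have hunit : IsUnit (X + a • 1) := by
          have e : X + a • 1 = (2 * a) • (1 : M F (l + 1)) + (X - a • 1) := by
            rw [two_mul, add_smul]; abel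
          rw [e]
          refine ha.isUnit_add_left_of_commute ?_ ((Commute.one_right _).smul_right _)
          rw [← Algebra.algebraMap_eq_smul_one]
          exact (Ne.isUnit (mul_ne_zero h2 ha0)).map (algebraMap F (M F (l + 1)))
        have hXa : X = a • 1 := sub_eq_zero.mp (hunit.mul_left_eq_zero.mp hsplit)
        rcases mul_self_eq_one_iff.mp (sub_eq_zero.mp h1).symm with h3 | h3
        · exact Or.inl (Subtype.ext (Units.ext (by rw [← hX, hXa, h3, one_smul]; rfl)))
        · refine Or.inr (Subtype.ext (Units.ext ?_))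
          rw [← hX, hXa, h3]
          show _ = ((sc (-1) : (M F (l + 1))ˣ) : M F (l + 1))
          rw [sc_coe, Units.val_neg, Units.val_one]
      · rintro (rfl | rfl) <;> refine MonoidHom.mem_ker.mpr (Subtype.ext (Units.ext ?_))
        · simp [sq, hsq]
        · simp [sq, hsq, sc_coe, pow_two, ← smul_mul_assoc]
    have e : (sq.ker : Set S) = {1, ⟨sc (-1), sc_mem h _⟩} := Set.ext fun s => key s
    have hne : (1 : S) ≠ ⟨sc (-1), sc_mem h _⟩ := fun he => by
      have h3 := congrArg (fun x : S => ((x : (M F (l + 1))ˣ) : M F (l + 1))) he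
      simp only [Subgroup.coe_one, Units.val_one, sc_coe, Units.val_neg] at h3
      have h4 := congrFun (congrFun h3 (Sum.inl 0)) (Sum.inl 0)
      simp at h4
      exact h2 (by linear_combination h4)
    rw [← SetLike.coe_sort_coe, Nat.card_coe_set_eq, e, Set.ncard_pair hne]
  have hsq_le : sq.range ≤ R := by
    rintro _ ⟨s, rfl⟩
    refine ⟨_, ⟨⟨s.1, s.2.1⟩, rfl⟩, ?_⟩
    show (s : (M F (l + 1))ˣ) * adjU (s : (M F (l + 1))ˣ) = ((sq s : S) : (M F (l + 1))ˣ)
    rw [show adjU (s : (M F (l + 1))ˣ) = s from Units.ext s.2.2]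
    simp [sq, hsq, pow_two]
  have hnot : (⟨sc lam, sc_mem h lam⟩ : S) ∉ R := by
    rintro ⟨_, ⟨z, rfl⟩, hz⟩
    exact hlam (isSquare_of_sc h hskew z hz.symm)
  have hidx : sq.range.index = 2 := by
    rw [← hker2]
    have h1 := sq.ker.card_mul_index
    have h3 := sq.range.card_mul_index
    rw [Subgroup.index_ker] at h1
    have hpos : 0 < Nat.card sq.range := Nat.card_pos
    nlinarith
  have hReq : R = sq.range := by
    have h1 := Subgroup.relIndex_mul_index hsq_le
    rw [hidx] at h1
    rcases (Nat.dvd_prime Nat.prime_two).mp (Dvd.intro_left _ h1) with h3 | h3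
    · exact absurd (Subgroup.index_eq_one.mp h3 ▸ Subgroup.mem_top _) hnot
    · rw [h3] at h1
      exact le_antisymm (Subgroup.relIndex_eq_one.mp (by omega)) hsq_le
  have hle : (nrm h hskew).range.map (CU B).subtype ≤ S := by
    rintro _ ⟨_, ⟨z, rfl⟩, rfl⟩
    refine ⟨mul_mem z.2 (adjU_mem hskew z.2), ?_⟩
    show adj (((z.1 : (M F (l + 1))ˣ) : M F (l + 1)) * adj (z.1 : M F (l + 1))) = _
    rw [adj_mul, adj_adj]
    rfl
  refine ⟨?_, fun D hD1 hD2 => ?_⟩
  · have hrange : Nat.card (nrm h hskew).range * 2 = Nat.card S := by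
      rw [← sq.range.card_mul_index, hidx, ← hReq, hR,
        Nat.card_congr (Subgroup.subgroupOfEquivOfLe hle).toEquiv, Subgroup.card_subtype]
    have h1 := (nrm h hskew).ker.card_mul_index
    rw [Subgroup.index_ker, card_CU h] at h1
    have hpos : 0 < Nat.card (nrm h hskew).range := Nat.card_pos
    rw [hS, card_SU' h hskew h2] at hrange
    refine Nat.eq_of_mul_eq_mul_right hpos ?_
    rw [h1, show 2 * l + 1 = l + (l + 1) by ring, pow_add, ← mul_assoc, ← hrange]
    ring
  · have hR2 : R.index = 2 := by rw [hReq, hidx]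
    have hcase := Subgroup.index_eq_two_iff'.mp hR2
    have : (⟨D, hD1, hD2⟩ : S) ∈ R ∨ (⟨sc lam, sc_mem h lam⟩ : S)⁻¹ * ⟨D, hD1, hD2⟩ ∈ R := by
      by_contra! hno
      exact hno.2 ((Subgroup.mul_mem_iff_of_index_two hR2).mpr
        ⟨fun hh => absurd (inv_mem_iff.mp hh) hnot, fun hh => absurd hh hno.1⟩)
    rcases this with hm | hm
    · obtain ⟨_, ⟨z, rfl⟩, hz⟩ := hm
      exact ⟨z, Or.inl hz.symm⟩
    · obtain ⟨_, ⟨z, rfl⟩, hz⟩ := hm
      refine ⟨z, Or.inr ?_⟩
      rw [show z.1 * adjU z.1 = (sc lam)⁻¹ * D from hz, mul_inv_cancel_left]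

end Count

end Skew

section Apply

/-- A symplectic matrix as a unit. -/
def toU {m : ℕ} {X : M F m} (hX : X * adj X = 1) : (M F m)ˣ :=
  ⟨X, adj X, hX, mul_eq_one_comm.mp hX⟩

theorem adjU_toU {m : ℕ} {X : M F m} (hX : X * adj X = 1) : adjU (toU hX) = (toU hX)⁻¹ :=
  Units.ext rfl

/-- The skew part of a regular unipotent isometry. -/
theorem sub_adj_data (h2 : (2 : F) ≠ 0) {U : M F (l + 1)} (hU : U * adj U = 1)
    (hnil : (U - 1) ^ (2 * (l + 1)) = 0) (hreg : (U - 1).rank = 2 * (l + 1) - 1) :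
    Reg (U - adj U) ∧ adj (U - adj U) = -(U - adj U) ∧
      ∀ X, Commute X (U - adj U) ↔ Commute X U := by
  have hVU : adj U * U = 1 := mul_eq_one_comm.mp hU
  set A := U - 1 with hA
  set W := adj U * ((2 : F) • (1 : M F (l + 1)) + A) with hW
  have hAV : Commute A (adj U) :=
    (show Commute U (adj U) from hU.trans hVU.symm).sub_left (Commute.one_left _)
  have hAW : Commute A W :=
    hAV.mul_right (((Commute.one_right A).smul_right _).add_right (Commute.refl A))
  have hWu : IsUnit W := by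
    refine (toU hU)⁻¹.isUnit.mul ?_
    refine IsNilpotent.isUnit_add_left_of_commute ⟨_, hnil⟩ ?_ ((Commute.one_right _).smul_right _)
    rw [← Algebra.algebraMap_eq_smul_one]
    exact (Ne.isUnit h2).map (algebraMap F (M F (l + 1)))
  have e : U - adj U = A * W := by
    have h1 : A * ((2 : F) • (1 : M F (l + 1)) + A) = U * U - 1 := by
      rw [hA, two_smul, show (1 : M F (l + 1)) + 1 + (U - 1) = U + 1 by abel, sub_mul, mul_add,
        mul_one, one_mul]
      abel
    rw [hW, ← mul_assoc, hAV.eq, mul_assoc, h1, mul_sub, ← mul_assoc, hVU, one_mul, mul_one]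
  have hreg' : Reg (U - adj U) := ⟨by rw [e, hAW.mul_pow, hnil, zero_mul],
    by rw [e, Matrix.rank_mul_eq_left_of_isUnit_det W A ((Matrix.isUnit_iff_isUnit_det W).mp hWu),
      hreg]⟩
  refine ⟨hreg', ?_, fun X => ⟨fun hX => ?_, fun hX => ?_⟩⟩
  · rw [adj_sub, adj_adj, neg_sub]
  · have hA' : Commute A (U - adj U) := by rw [e]; exact (Commute.refl A).mul_right hAW
    have := (hreg'.comm_of_commute hX hA').add_right (Commute.one_right X)
    rwa [hA, sub_add_cancel] at this
  · exact hX.sub_right (Commute.units_inv_right (u := toU hU) hX)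

/-- Two such elements are conjugate in the general linear group. -/
theorem exists_gl_conj {A A' : M F (l + 1)} (h : Reg A) (h' : Reg A') :
    ∃ P : (M F (l + 1))ˣ, (P : M F (l + 1)) * A = A' * P := by
  obtain ⟨P, hP⟩ := CyclicNilp.exists_conj (ri A) (ri A') h.ri_nil h'.ri_nil h.ri_rank h'.ri_rank
  refine ⟨Units.map (ri (F := F) (l := l)).symm.toAlgHom.toMonoidHom P, ri.injective ?_⟩
  simp [hP]

/-- The height function of the standard regular element. -/
def ht (l : ℕ) : Fin (l + 1) ⊕ Fin (l + 1) → ℕ :=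
  Sum.elim (fun i => 2 * l + 1 - i) (fun i => i)

theorem ht_injective : Function.Injective (ht l) := by
  rintro (i | i) (j | j) h <;> simp only [ht, Sum.elim_inl, Sum.elim_inr] at h <;>
    first
    | (congr 1; ext; omega)
    | (exfalso; omega)

variable (F l) in
/-- A regular nilpotent element of the symplectic Lie algebra. -/
def stdB : M F (l + 1) :=
  Matrix.of fun x y => if ht l x = ht l y + 1 then Sum.elim (fun _ => 1) (fun _ => -1) x else 0

theorem stdB_pow (k : ℕ) : ∀ x y, (stdB F l ^ k) x y ≠ 0 → ht l x = ht l y + k := by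
  induction k with
  | zero =>
    intro x y h
    rw [pow_zero, Matrix.one_apply] at h
    by_cases hxy : x = y
    · subst hxy; simp
    · simp [hxy] at h
  | succ k ih =>
    intro x y h
    rw [pow_succ, Matrix.mul_apply] at h
    obtain ⟨z, -, hz⟩ := Finset.exists_ne_zero_of_sum_ne_zero h
    have h1 := ih x z (left_ne_zero_of_mul hz)
    have h2 : ht l z = ht l y + 1 := by
      by_contra hne
      exact right_ne_zero_of_mul hz (by simp [stdB, hne])
    omega

theorem adj_fromBlocks {m : ℕ} (a b c d : Matrix (Fin m) (Fin m) F) :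
    adj (Matrix.fromBlocks a b c d) = Matrix.fromBlocks dᵀ (-bᵀ) (-cᵀ) aᵀ := by
  simp [adj, Matrix.J, Matrix.fromBlocks_transpose, Matrix.fromBlocks_multiply,
    Matrix.fromBlocks_neg]

theorem stdB_skew : adj (stdB F l) = -stdB F l := by
  rw [← Matrix.fromBlocks_toBlocks (stdB F l), adj_fromBlocks, Matrix.fromBlocks_neg]
  congr 1 <;> ext i j <;>
    simp only [Matrix.transpose_apply, Matrix.neg_apply, Matrix.toBlocks₁₁, Matrix.toBlocks₁₂,
      Matrix.toBlocks₂₁, Matrix.toBlocks₂₂, stdB, Matrix.of_apply, Sum.elim_inl, Sum.elim_inr] <;>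
    (refine Eq.trans ?_ (apply_ite (fun x : F => -x) _ _ _).symm
     try refine Eq.trans (apply_ite (fun x : F => -x) _ _ _) ?_
     simp only [neg_zero, neg_neg]
     refine if_congr ?_ rfl rfl
     simp only [ht, Sum.elim_inl, Sum.elim_inr]
     omega)

theorem stdB_reg : Reg (stdB F l) := by
  refine ⟨?_, ?_⟩
  · ext x y
    by_contra hne
    have h := stdB_pow _ x y hne
    have : ht l x ≤ 2 * l + 1 := by
      rcases x with i | i <;> simp only [ht, Sum.elim_inl, Sum.elim_inr] <;> omega
    omega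
  · set y0 : Fin (l + 1) ⊕ Fin (l + 1) := Sum.inl 0
    have hker : LinearMap.ker (stdB F l).mulVecLin = F ∙ (Pi.single y0 (1 : F)) := by
      refine le_antisymm (fun v hv => ?_) ?_
      · rw [Submodule.mem_span_singleton]
        refine ⟨v y0, funext fun y => ?_⟩
        by_cases hy : y = y0
        · subst hy; simp
        · rw [Pi.smul_apply, Pi.single_eq_of_ne hy, smul_zero]
          obtain ⟨x, hx, hx1⟩ : ∃ x, ht l x = ht l y + 1 ∧ True := by
            rcases y with i | i
            · have hi : (i : ℕ) ≠ 0 := fun h0 => hy (congrArg Sum.inl (Fin.ext h0))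
              exact ⟨Sum.inl ⟨i - 1, by omega⟩, by simp [ht]; omega, trivial⟩
            · by_cases hi : (i : ℕ) = l
              · exact ⟨Sum.inl ⟨l, by omega⟩, by simp [ht]; omega, trivial⟩
              · exact ⟨Sum.inr ⟨i + 1, by omega⟩, by simp [ht], trivial⟩
          have h0 := congrFun (LinearMap.mem_ker.mp hv) x
          simp only [Matrix.mulVecLin_apply, Matrix.mulVec, dotProduct, Pi.zero_apply] at h0
          rw [Finset.sum_eq_single y] at h0
          · rcases mul_eq_zero.mp h0 with h | h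
            · rcases x with i | i <;> simp [stdB, hx] at h
            · exact h.symm
          · intro z _ hz
            have : ¬ ht l x = ht l z + 1 := fun h => hz (ht_injective (by omega))
            simp [stdB, this]
          · simp
      · rw [Submodule.span_singleton_le_iff_mem, LinearMap.mem_ker]
        funext x
        simp only [Matrix.mulVecLin_apply, Matrix.mulVec_single_one, Matrix.col_apply, Pi.zero_apply]
        by_contra hne
        have h : ht l x = ht l y0 + 1 := by
          by_contra h; exact hne (by simp [stdB, h])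
        rcases x with i | i <;> simp [ht, y0] at h <;> omega
    have h1 := LinearMap.finrank_range_add_finrank_ker (stdB F l).mulVecLin
    rw [hker, finrank_span_singleton (by simp [Pi.single_eq_zero_iff]),
      Module.finrank_fintype_fun_eq_card, Fintype.card_sum, Fintype.card_fin] at h1
    change Module.finrank F (LinearMap.range (stdB F l).mulVecLin) = _
    omega

/-- A regular unipotent isometry exists. -/
theorem exists_regular (h2 : (2 : F) ≠ 0) : ∃ U : M F (l + 1), U * adj U = 1 ∧
    (U - 1) ^ (2 * (l + 1)) = 0 ∧ (U - 1).rank = 2 * (l + 1) - 1 := by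
  set B := stdB F l with hB
  have hnB : IsNilpotent B := ⟨_, stdB_reg.nil⟩
  obtain ⟨P, hP⟩ := hnB.isUnit_one_add
  obtain ⟨N, hN⟩ := hnB.isUnit_one_sub
  have hPN : Commute P N := Units.ext (by
    simp only [Units.val_mul, hP, hN]
    noncomm_ring)
  have hadjN : adjU N = P := Units.ext (by
    show adj (N : M F (l + 1)) = P
    rw [hN, hP, adj_sub, adj_one, hB, stdB_skew, sub_neg_eq_add])
  have hadjP : adjU P = N := by rw [← hadjN, adjU_adjU]
  set U := P * N⁻¹ with hUdef
  have hU : U * adjU U = 1 := by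
    rw [hUdef, adjU_mul, adjU_inv, hadjN, hadjP, mul_assoc, ← mul_assoc N⁻¹, hPN.inv_inv.symm.eq,
      mul_assoc, inv_mul_cancel, mul_one, mul_inv_cancel]
  have e : (U : M F (l + 1)) - 1 = B * ((2 : F) • ((N⁻¹ : (M F (l + 1))ˣ) : M F (l + 1))) := by
    have h1 : (1 : M F (l + 1)) = (1 - B) * ((N⁻¹ : (M F (l + 1))ˣ) : M F (l + 1)) := by
      rw [← hN, Units.mul_inv]
    conv_lhs => arg 2; rw [h1]
    rw [hUdef, Units.val_mul, hP, ← sub_mul, mul_smul_comm, show 1 + B - (1 - B) = (2 : F) • B by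
      rw [two_smul]; abel, smul_mul_assoc]
  have hcomm : Commute B ((2 : F) • ((N⁻¹ : (M F (l + 1))ˣ) : M F (l + 1))) := by
    refine Commute.smul_right (Commute.units_inv_right ?_) _
    rw [hN]; exact (Commute.one_right B).sub_right (Commute.refl B)
  have hu : IsUnit ((2 : F) • ((N⁻¹ : (M F (l + 1))ˣ) : M F (l + 1))) := by
    rw [← smul_one_mul, ← Algebra.algebraMap_eq_smul_one]
    exact ((Ne.isUnit h2).map (algebraMap F (M F (l + 1)))).mul (Units.isUnit _)
  refine ⟨(U : M F (l + 1)), congrArg Units.val hU, by rw [e, hcomm.mul_pow, stdB_reg.nil, zero_mul], ?_⟩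
  rw [e, Matrix.rank_mul_eq_left_of_isUnit_det _ _ ((Matrix.isUnit_iff_isUnit_det _).mp hu),
    stdB_reg.rank]

/-- A similitude of multiplier `c`. -/
def simil (c : Fˣ) : (M F (l + 1))ˣ where
  val := Matrix.fromBlocks ((c : F) • 1) 0 0 1
  inv := Matrix.fromBlocks (((c⁻¹ : Fˣ) : F) • 1) 0 0 1
  val_inv := by simp [Matrix.fromBlocks_multiply, smul_smul]
  inv_val := by simp [Matrix.fromBlocks_multiply, smul_smul]

theorem adjU_simil_mul (c : Fˣ) : adjU (simil c : (M F (l + 1))ˣ) * simil c = sc c := by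
  refine Units.ext ?_
  show adj (Matrix.fromBlocks ((c : F) • 1) 0 0 1) * Matrix.fromBlocks ((c : F) • 1) 0 0 1 = _
  rw [sc_coe, adj, Matrix.J, Matrix.fromBlocks_transpose]
  simp [Matrix.fromBlocks_multiply, Matrix.fromBlocks_neg, ← Matrix.fromBlocks_one,
    Matrix.fromBlocks_smul]

end Apply

end CfsgLib.CyclicNilpSp
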